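import Mathlib

/-!
# Double counting for sharply k-transitive actions (Jordan's theorem on degrees)
-/

set_option autoImplicit false

namespace Cfsg.Agent.Lib.SharpTrans

open Finset
open scoped Classical

/-- Sharply `k`-transitive action. -/
def Sharp (H Λ : Type*) [Group H] [MulAction H Λ] (k : ℕ) : Prop :=
  ∀ x y : Fin k ↪ Λ, ∃! h : H, ∀ i, h • x i = y i

section basic

variable {H Λ : Type*} [Group H] [MulAction H Λ]

theorem Sharp.eq_one {k : ℕ} (hS : Sharp H Λ k) (x : Fin k ↪ Λ) {h : H}
    (hx : ∀ i, h • x i = x i) : h = 1 := by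
  obtain ⟨g, -, hu⟩ := hS x x
  rw [hu h hx, hu 1 (by simp)]

variable [Fintype Λ]

/-- solutions of `t ∘ x = x ∘ s` -/
noncomputable def sol {k : ℕ} (t : H) (s : Fin k → Fin k) : Finset (Fin k ↪ Λ) :=
  univ.filter fun x => ∀ i, t • x i = x (s i)

theorem mem_sol {k : ℕ} {t : H} {s : Fin k → Fin k} {x : Fin k ↪ Λ} :
    x ∈ sol t s ↔ ∀ i, t • x i = x (s i) := by
  simp [sol]

theorem sum_card_sol [Fintype H] {k : ℕ} (hS : Sharp H Λ k) (s : Fin k → Fin k)
    (hs : Function.Injective s) :
    ∑ t : H, (sol t s : Finset (Fin k ↪ Λ)).card = Fintype.card (Fin k ↪ Λ) := by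
  have hex : ∀ x : Fin k ↪ Λ, ∃! h : H, ∀ i, h • x i = x (s i) := fun x =>
    hS x ⟨fun i => x (s i), fun i j h => hs (x.injective h)⟩
  choose τ hτ hu using hex
  have h := Finset.card_eq_sum_card_fiberwise (f := τ) (s := (univ : Finset (Fin k ↪ Λ)))
    (t := (univ : Finset H)) (fun _ _ => mem_univ _)
  rw [Finset.card_univ] at h
  rw [h]
  refine Finset.sum_congr rfl fun t _ => ?_
  congr 1
  ext x
  simp only [mem_sol, mem_filter, mem_univ, true_and]
  exact ⟨fun hx => (hu x t hx).symm, fun hx => hx ▸ hτ x⟩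

/-- moved points -/
noncomputable def mv (t : H) : Finset Λ := univ.filter fun a => t • a ≠ a
/-- fixed points -/
noncomputable def fx (t : H) : Finset Λ := univ.filter fun a => t • a = a

theorem mem_mv {t : H} {a : Λ} : a ∈ (mv t : Finset Λ) ↔ t • a ≠ a := by simp [mv]
theorem mem_fx {t : H} {a : Λ} : a ∈ (fx t : Finset Λ) ↔ t • a = a := by simp [fx]

theorem card_fx_add_mv (t : H) : (fx t : Finset Λ).card + (mv t : Finset Λ).card = Fintype.card Λ := by
  have := Finset.card_filter_add_card_filter_not (s := (univ : Finset Λ)) (fun a => t • a = a)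
  simpa [fx, mv] using this

/-- involutions -/
noncomputable def inv' (H : Type*) [Group H] [Fintype H] : Finset H := univ.filter fun t => t ≠ 1 ∧ t * t = 1

theorem mem_inv' [Fintype H] {t : H} : t ∈ inv' H ↔ t ≠ 1 ∧ t * t = 1 := by simp [inv']

theorem smul_smul_inv {t : H} (ht : t * t = 1) (a : Λ) : t • t • a = a := by
  rw [smul_smul, ht, one_smul]

theorem two_dvd_card_mv {t : H} (ht : t * t = 1) : 2 ∣ (mv t : Finset Λ).card := by
  have h := Equiv.Perm.two_dvd_card_support (σ := (MulAction.toPerm t : Equiv.Perm Λ)) (by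
    ext a; simp [pow_two, smul_smul, ht])
  convert h using 2
  ext a
  simp [mem_mv]

theorem smul_mem_mv {t : H} (ht : t * t = 1) {a : Λ} (ha : a ∈ (mv t : Finset Λ)) :
    t • a ∈ (mv t : Finset Λ) := by
  rw [mem_mv] at ha ⊢
  rw [smul_smul_inv ht]
  exact fun h => ha h.symm

theorem inj4 {Λ : Type*} {a b c d : Λ} (hab : a ≠ b) (hac : a ≠ c) (had : a ≠ d) (hbc : b ≠ c)
    (hbd : b ≠ d) (hcd : c ≠ d) : Function.Injective ![a, b, c, d] := by
  intro i j hij
  fin_cases i <;> fin_cases j <;>
    first
    | rfl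
    | exact absurd hij hab | exact absurd hij hac | exact absurd hij had
    | exact absurd hij hbc | exact absurd hij hbd | exact absurd hij hcd
    | exact absurd hij.symm hab | exact absurd hij.symm hac | exact absurd hij.symm had
    | exact absurd hij.symm hbc | exact absurd hij.symm hbd | exact absurd hij.symm hcd

/-- `s = (01)` on four points: count. -/
theorem card_sol_A {t : H} (ht : t * t = 1) :
    (sol t ![1, 0, 2, 3] : Finset (Fin 4 ↪ Λ)).card =
      (mv t : Finset Λ).card * ((fx t : Finset Λ).card * (fx t : Finset Λ).card - (fx t : Finset Λ).card) := by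
  rw [← Finset.offDiag_card, ← Finset.card_product]
  refine Finset.card_bij (fun x _ => (x 0, (x 2, x 3))) ?_ ?_ ?_
  · intro x hx
    rw [mem_sol] at hx
    have h0 := hx 0; have h2 := hx 2; have h3 := hx 3
    simp only [Matrix.cons_val] at h0 h2 h3
    simp only [mem_product, mem_offDiag, mem_mv, mem_fx]
    refine ⟨?_, h2, h3, ?_⟩
    · rw [h0]; exact fun h => by simpa using x.injective h
    · exact fun h => by simpa using x.injective h
  · intro x hx y hy hxy
    rw [mem_sol] at hx hy
    simp only [Prod.mk.injEq] at hxy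
    obtain ⟨h0, h2, h3⟩ := hxy
    have hx0 := hx 0; have hy0 := hy 0
    simp only [Matrix.cons_val] at hx0 hy0
    ext i
    fin_cases i
    · exact h0
    · show x 1 = y 1
      rw [← hx0, ← hy0, h0]
    · exact h2
    · exact h3
  · rintro ⟨a, c, d⟩ hy
    simp only [mem_product, mem_offDiag, mem_mv, mem_fx] at hy
    obtain ⟨ha, hc, hd, hcd⟩ := hy
    have hac : a ≠ c := fun h => ha (h ▸ hc)
    have had : a ≠ d := fun h => ha (h ▸ hd)
    have htc : t • a ≠ c := fun h => hac (by
      have := congrArg (fun z => t • z) h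
      simpa only [smul_smul_inv ht, hc] using this)
    have htd : t • a ≠ d := fun h => had (by
      have := congrArg (fun z => t • z) h
      simpa only [smul_smul_inv ht, hd] using this)
    refine ⟨⟨![a, t • a, c, d], inj4 (Ne.symm ha) hac had htc htd hcd⟩, ?_, rfl⟩
    · rw [mem_sol]
      intro i
      fin_cases i <;> simp [smul_smul_inv ht, hc, hd]

theorem inj6 {Λ : Type*} {a b c d e g : Λ} (hab : a ≠ b) (hac : a ≠ c) (had : a ≠ d) (hae : a ≠ e)
    (hag : a ≠ g) (hbc : b ≠ c) (hbd : b ≠ d) (hbe : b ≠ e) (hbg : b ≠ g) (hcd : c ≠ d) (hce : c ≠ e)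
    (hcg : c ≠ g) (hde : d ≠ e) (hdg : d ≠ g) (heg : e ≠ g) :
    Function.Injective ![a, b, c, d, e, g] := by
  intro i j hij
  fin_cases i <;> fin_cases j <;>
    first
    | rfl
    | exact absurd hij hab | exact absurd hij hac | exact absurd hij had | exact absurd hij hae
    | exact absurd hij hag | exact absurd hij hbc | exact absurd hij hbd | exact absurd hij hbe
    | exact absurd hij hbg | exact absurd hij hcd | exact absurd hij hce | exact absurd hij hcg
    | exact absurd hij hde | exact absurd hij hdg | exact absurd hij heg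
    | exact absurd hij.symm hab | exact absurd hij.symm hac | exact absurd hij.symm had
    | exact absurd hij.symm hae | exact absurd hij.symm hag | exact absurd hij.symm hbc
    | exact absurd hij.symm hbd | exact absurd hij.symm hbe | exact absurd hij.symm hbg
    | exact absurd hij.symm hcd | exact absurd hij.symm hce | exact absurd hij.symm hcg
    | exact absurd hij.symm hde | exact absurd hij.symm hdg | exact absurd hij.symm heg

/-- ordered pairs of "independent" moved points -/
noncomputable def pairs (t : H) : Finset (Σ _ : Λ, Λ) :=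
  (mv t : Finset Λ).sigma fun a => (mv t : Finset Λ) \ {a, t • a}

theorem mem_pairs {t : H} {a c : Λ} :
    (⟨a, c⟩ : Σ _ : Λ, Λ) ∈ (pairs t : Finset (Σ _ : Λ, Λ)) ↔
      t • a ≠ a ∧ t • c ≠ c ∧ c ≠ a ∧ c ≠ t • a := by
  simp [pairs, mem_mv, and_assoc]

theorem card_pairs {t : H} (ht : t * t = 1) :
    (pairs t : Finset (Σ _ : Λ, Λ)).card = (mv t : Finset Λ).card * ((mv t : Finset Λ).card - 2) := by
  rw [pairs, Finset.card_sigma]
  rw [Finset.sum_congr rfl (g := fun _ => (mv t : Finset Λ).card - 2)]
  · simp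
  · intro a ha
    have h1 : ({a, t • a} : Finset Λ) ⊆ mv t := by
      intro b hb
      simp only [mem_insert, mem_singleton] at hb
      rcases hb with rfl | rfl
      · exact ha
      · exact smul_mem_mv ht ha
    rw [Finset.card_sdiff_of_subset h1, Finset.card_pair (Ne.symm (mem_mv.1 ha))]

/-- `s = (01)(23)` on four points: count. -/
theorem card_sol_B {t : H} (ht : t * t = 1) :
    (sol t ![1, 0, 3, 2] : Finset (Fin 4 ↪ Λ)).card =
      (mv t : Finset Λ).card * ((mv t : Finset Λ).card - 2) := by
  rw [← card_pairs ht]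
  refine Finset.card_bij (fun x _ => ⟨x 0, x 2⟩) ?_ ?_ ?_
  · intro x hx
    rw [mem_sol] at hx
    have h0 := hx 0; have h2 := hx 2
    simp only [Matrix.cons_val] at h0 h2
    rw [mem_pairs, h0, h2]
    refine ⟨fun h => by simpa using x.injective h, fun h => by simpa using x.injective h,
      fun h => by simpa using x.injective h, fun h => by simpa using x.injective h⟩
  · intro x hx y hy hxy
    rw [mem_sol] at hx hy
    simp only [Sigma.mk.injEq, heq_eq_eq] at hxy
    obtain ⟨h0, h2⟩ := hxy
    have hx0 := hx 0; have hy0 := hy 0; have hx2 := hx 2; have hy2 := hy 2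
    simp only [Matrix.cons_val] at hx0 hy0 hx2 hy2
    ext i
    fin_cases i
    · exact h0
    · show x 1 = y 1
      rw [← hx0, ← hy0, h0]
    · exact h2
    · show x 3 = y 3
      rw [← hx2, ← hy2, h2]
  · rintro ⟨a, c⟩ hy
    rw [mem_pairs] at hy
    obtain ⟨ha, hc, hca, hcb⟩ := hy
    have h1 : t • a ≠ t • c := fun h => hca (smul_left_cancel t h).symm
    have h2 : a ≠ t • c := fun h => hcb (by rw [h, smul_smul_inv ht])
    refine ⟨⟨![a, t • a, c, t • c], inj4 (Ne.symm ha) (Ne.symm hca) h2 (Ne.symm hcb) h1 (Ne.symm hc)⟩,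
      ?_, rfl⟩
    rw [mem_sol]
    intro i
    fin_cases i <;> simp [smul_smul_inv ht]

/-- `s = (01)(23)(45)` on six points: count. -/
noncomputable def triples (t : H) : Finset (Σ _ : (Σ _ : Λ, Λ), Λ) :=
  (pairs t).sigma fun p => (mv t : Finset Λ) \ {p.1, t • p.1, p.2, t • p.2}

theorem mem_triples {t : H} {a c e : Λ} :
    (⟨⟨a, c⟩, e⟩ : Σ _ : (Σ _ : Λ, Λ), Λ) ∈ (triples t : Finset (Σ _ : (Σ _ : Λ, Λ), Λ)) ↔
      (t • a ≠ a ∧ t • c ≠ c ∧ c ≠ a ∧ c ≠ t • a) ∧ t • e ≠ e ∧ e ≠ a ∧ e ≠ t • a ∧ e ≠ c ∧ e ≠ t • c := by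
  simp only [triples, mem_sigma, mem_pairs, mem_sdiff, mem_mv, mem_insert, mem_singleton, not_or]

theorem card_triples {t : H} (ht : t * t = 1) :
    (triples t : Finset (Σ _ : (Σ _ : Λ, Λ), Λ)).card =
      (mv t : Finset Λ).card * ((mv t : Finset Λ).card - 2) * ((mv t : Finset Λ).card - 4) := by
  rw [triples, Finset.card_sigma]
  rw [Finset.sum_congr rfl (g := fun _ => (mv t : Finset Λ).card - 4)]
  · simp [card_pairs ht]
  · rintro ⟨a, c⟩ hp
    rw [mem_pairs] at hp
    obtain ⟨ha, hc, hca, hcb⟩ := hp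
    have hsub : ({a, t • a, c, t • c} : Finset Λ) ⊆ mv t := by
      intro b hb
      simp only [mem_insert, mem_singleton] at hb
      rcases hb with rfl | rfl | rfl | rfl
      · exact mem_mv.2 ha
      · exact smul_mem_mv ht (mem_mv.2 ha)
      · exact mem_mv.2 hc
      · exact smul_mem_mv ht (mem_mv.2 hc)
    have h1 : t • a ≠ t • c := fun h => hca (smul_left_cancel t h).symm
    have h2 : a ≠ t • c := fun h => hcb (by rw [h, smul_smul_inv ht])
    have hcard : ({a, t • a, c, t • c} : Finset Λ).card = 4 := by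
      rw [Finset.card_insert_of_notMem, Finset.card_insert_of_notMem, Finset.card_pair (Ne.symm hc)]
      · simp only [mem_insert, mem_singleton, not_or]
        exact ⟨Ne.symm hcb, h1⟩
      · simp only [mem_insert, mem_singleton, not_or]
        exact ⟨Ne.symm ha, Ne.symm hca, h2⟩
    rw [Finset.card_sdiff_of_subset hsub, hcard]

theorem card_sol_C {t : H} (ht : t * t = 1) :
    (sol t ![1, 0, 3, 2, 5, 4] : Finset (Fin 6 ↪ Λ)).card =
      (mv t : Finset Λ).card * ((mv t : Finset Λ).card - 2) * ((mv t : Finset Λ).card - 4) := by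
  rw [← card_triples ht]
  refine Finset.card_bij (fun x _ => ⟨⟨x 0, x 2⟩, x 4⟩) ?_ ?_ ?_
  · intro x hx
    rw [mem_sol] at hx
    have h0 := hx 0; have h2 := hx 2; have h4 := hx 4
    simp only [Matrix.cons_val] at h0 h2 h4
    rw [mem_triples, h0, h2, h4]
    refine ⟨⟨fun h => by simpa using x.injective h, fun h => by simpa using x.injective h,
      fun h => by simpa using x.injective h, fun h => by simpa using x.injective h⟩,
      fun h => by simpa using x.injective h, fun h => by simpa using x.injective h,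
      fun h => by simpa using x.injective h, fun h => by simpa using x.injective h,
      fun h => by simpa using x.injective h⟩
  · intro x hx y hy hxy
    rw [mem_sol] at hx hy
    simp only [Sigma.mk.injEq, heq_eq_eq] at hxy
    obtain ⟨⟨h0, h2⟩, h4⟩ := hxy
    have hx0 := hx 0; have hy0 := hy 0; have hx2 := hx 2; have hy2 := hy 2
    have hx4 := hx 4; have hy4 := hy 4
    simp only [Matrix.cons_val] at hx0 hy0 hx2 hy2 hx4 hy4
    ext i
    fin_cases i
    · exact h0
    · show x 1 = y 1
      rw [← hx0, ← hy0, h0]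
    · exact h2
    · show x 3 = y 3
      rw [← hx2, ← hy2, h2]
    · exact h4
    · show x 5 = y 5
      rw [← hx4, ← hy4, h4]
  · rintro ⟨⟨a, c⟩, e⟩ hy
    rw [mem_triples] at hy
    obtain ⟨⟨ha, hc, hca, hcb⟩, he, hea, heb, hec, hed⟩ := hy
    have h1 : t • a ≠ t • c := fun h => hca (smul_left_cancel t h).symm
    have h2 : a ≠ t • c := fun h => hcb (by rw [h, smul_smul_inv ht])
    have h3 : t • a ≠ t • e := fun h => hea (smul_left_cancel t h).symm
    have h4 : a ≠ t • e := fun h => heb (by rw [h, smul_smul_inv ht])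
    have h5 : t • c ≠ t • e := fun h => hec (smul_left_cancel t h).symm
    have h6 : c ≠ t • e := fun h => hed (by rw [h, smul_smul_inv ht])
    refine ⟨⟨![a, t • a, c, t • c, e, t • e], inj6 (Ne.symm ha) (Ne.symm hca) h2 (Ne.symm hea) h4
      (Ne.symm hcb) h1 (Ne.symm heb) h3 (Ne.symm hc) (Ne.symm hec) h6 (Ne.symm hed) h5 (Ne.symm he)⟩,
      ?_, rfl⟩
    rw [mem_sol]
    intro i
    fin_cases i <;> simp [smul_smul_inv ht]

/-- `s = (01)(23)` on six points, fixing `4, 5`: count. -/
theorem card_sol_D {t : H} (ht : t * t = 1) :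
    (sol t ![1, 0, 3, 2, 4, 5] : Finset (Fin 6 ↪ Λ)).card =
      (mv t : Finset Λ).card * ((mv t : Finset Λ).card - 2) *
        ((fx t : Finset Λ).card * (fx t : Finset Λ).card - (fx t : Finset Λ).card) := by
  rw [← card_pairs ht, ← Finset.offDiag_card, ← Finset.card_product]
  refine Finset.card_bij (fun x _ => (⟨x 0, x 2⟩, (x 4, x 5))) ?_ ?_ ?_
  · intro x hx
    rw [mem_sol] at hx
    have h0 := hx 0; have h2 := hx 2; have h4 := hx 4; have h5 := hx 5
    simp only [Matrix.cons_val] at h0 h2 h4 h5
    simp only [mem_product, mem_offDiag, mem_fx]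
    rw [mem_pairs, h0, h2]
    refine ⟨⟨fun h => by simpa using x.injective h, fun h => by simpa using x.injective h,
      fun h => by simpa using x.injective h, fun h => by simpa using x.injective h⟩, h4, h5,
      fun h => by simpa using x.injective h⟩
  · intro x hx y hy hxy
    rw [mem_sol] at hx hy
    simp only [Prod.mk.injEq, Sigma.mk.injEq, heq_eq_eq] at hxy
    obtain ⟨⟨h0, h2⟩, h4, h5⟩ := hxy
    have hx0 := hx 0; have hy0 := hy 0; have hx2 := hx 2; have hy2 := hy 2
    simp only [Matrix.cons_val] at hx0 hy0 hx2 hy2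
    ext i
    fin_cases i
    · exact h0
    · show x 1 = y 1
      rw [← hx0, ← hy0, h0]
    · exact h2
    · show x 3 = y 3
      rw [← hx2, ← hy2, h2]
    · exact h4
    · exact h5
  · rintro ⟨⟨a, c⟩, e, g⟩ hy
    simp only [mem_product, mem_offDiag, mem_fx] at hy
    rw [mem_pairs] at hy
    obtain ⟨⟨ha, hc, hca, hcb⟩, he, hg, heg⟩ := hy
    have h1 : t • a ≠ t • c := fun h => hca (smul_left_cancel t h).symm
    have h2 : a ≠ t • c := fun h => hcb (by rw [h, smul_smul_inv ht])
    have hae : a ≠ e := fun h => ha (h ▸ he)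
    have hag : a ≠ g := fun h => ha (h ▸ hg)
    have hce : c ≠ e := fun h => hc (h ▸ he)
    have hcg : c ≠ g := fun h => hc (h ▸ hg)
    have hbe : t • a ≠ e := fun h => hae (by
      have := congrArg (fun z => t • z) h
      simpa only [smul_smul_inv ht, he] using this)
    have hbg : t • a ≠ g := fun h => hag (by
      have := congrArg (fun z => t • z) h
      simpa only [smul_smul_inv ht, hg] using this)
    have hde : t • c ≠ e := fun h => hce (by
      have := congrArg (fun z => t • z) h
      simpa only [smul_smul_inv ht, he] using this)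
    have hdg : t • c ≠ g := fun h => hcg (by
      have := congrArg (fun z => t • z) h
      simpa only [smul_smul_inv ht, hg] using this)
    refine ⟨⟨![a, t • a, c, t • c, e, g], inj6 (Ne.symm ha) (Ne.symm hca) h2 hae hag
      (Ne.symm hcb) h1 hbe hbg (Ne.symm hc) hce hcg hde hdg heg⟩, ?_, rfl⟩
    rw [mem_sol]
    intro i
    fin_cases i <;> simp [smul_smul_inv ht, he, hg]

/-- `s = (01)` on six points, fixing the rest: count. -/
theorem card_sol_E {t : H} (ht : t * t = 1) :
    (sol t ![1, 0, 2, 3, 4, 5] : Finset (Fin 6 ↪ Λ)).card =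
      (mv t : Finset Λ).card * ((fx t : Finset Λ).card.descFactorial 4) := by
  have hc : Fintype.card (Fin 4 ↪ (fx t : Finset Λ)) = (fx t : Finset Λ).card.descFactorial 4 := by
    rw [Fintype.card_embedding_eq, Fintype.card_fin, Fintype.card_coe]
  rw [← hc, ← Finset.card_univ, ← Finset.card_product]
  have hmem : ∀ x ∈ (sol t ![1, 0, 2, 3, 4, 5] : Finset (Fin 6 ↪ Λ)), ∀ j : Fin 4,
      x ((![2, 3, 4, 5] : Fin 4 → Fin 6) j) ∈ (fx t : Finset Λ) := by
    intro x hx j
    rw [mem_sol] at hx
    rw [mem_fx]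
    have h2 := hx 2; have h3 := hx 3; have h4 := hx 4; have h5 := hx 5
    simp only [Matrix.cons_val] at h2 h3 h4 h5
    fin_cases j
    · exact h2
    · exact h3
    · exact h4
    · exact h5
  have hinj : Function.Injective (![2, 3, 4, 5] : Fin 4 → Fin 6) := by decide
  refine Finset.card_bij (fun x hx => (x 0, (⟨fun j => ⟨x ((![2, 3, 4, 5] : Fin 4 → Fin 6) j), hmem x hx j⟩,
    fun j j' h => hinj (x.injective (Subtype.mk.inj h))⟩ : Fin 4 ↪ (fx t : Finset Λ)))) ?_ ?_ ?_
  · intro x hx
    rw [mem_sol] at hx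
    have h0 := hx 0
    simp only [Matrix.cons_val] at h0
    simp only [mem_product, mem_univ, and_true, mem_mv]
    rw [h0]
    exact fun h => by simpa using x.injective h
  · intro x hx y hy hxy
    rw [mem_sol] at hx hy
    simp only [Prod.mk.injEq] at hxy
    obtain ⟨h0, h2⟩ := hxy
    have hv : ∀ j : Fin 4, x ((![2, 3, 4, 5] : Fin 4 → Fin 6) j) = y ((![2, 3, 4, 5] : Fin 4 → Fin 6) j) := by
      intro j
      exact congrArg (fun z : Fin 4 ↪ (fx t : Finset Λ) => (z j : Λ)) h2
    have hx0 := hx 0; have hy0 := hy 0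
    simp only [Matrix.cons_val] at hx0 hy0
    ext i
    fin_cases i
    · exact h0
    · show x 1 = y 1
      rw [← hx0, ← hy0, h0]
    · exact hv 0
    · exact hv 1
    · exact hv 2
    · exact hv 3
  · rintro ⟨a, z⟩ hy
    simp only [mem_product, mem_univ, and_true, mem_mv] at hy
    have hz : ∀ j, t • (z j : Λ) = z j := fun j => mem_fx.1 (z j).2
    have hzinj : ∀ i j, i ≠ j → (z i : Λ) ≠ z j := fun i j hij h =>
      hij (z.injective (Subtype.ext h))
    have hae : ∀ j, a ≠ z j := fun j h => hy (by rw [h, hz])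
    have hbe : ∀ j, t • a ≠ z j := fun j h => hae j (by
      have := congrArg (fun z => t • z) h
      simpa only [smul_smul_inv ht, hz] using this)
    refine ⟨⟨![a, t • a, z 0, z 1, z 2, z 3], inj6 (Ne.symm hy) (hae 0) (hae 1) (hae 2) (hae 3)
      (hbe 0) (hbe 1) (hbe 2) (hbe 3) (hzinj _ _ (by decide)) (hzinj _ _ (by decide))
      (hzinj _ _ (by decide)) (hzinj _ _ (by decide)) (hzinj _ _ (by decide))
      (hzinj _ _ (by decide))⟩, ?_, ?_⟩
    · rw [mem_sol]
      intro i
      fin_cases i <;> simp [smul_smul_inv ht, hz]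
    · refine Prod.ext rfl ?_
      ext j
      fin_cases j <;> rfl

/-- If `t ∘ x = x ∘ s` with `s` an involution moving a point then `t` is an involution. -/
theorem mem_inv'_of_sol [Fintype H] {k : ℕ} (hS : Sharp H Λ k) {s : Fin k → Fin k}
    (hs2 : ∀ i, s (s i) = i) (hs1 : ∃ i, s i ≠ i) {t : H} {x : Fin k ↪ Λ} (hx : x ∈ (sol t s : Finset (Fin k ↪ Λ))) :
    t ∈ inv' H := by
  rw [mem_sol] at hx
  rw [mem_inv']
  constructor
  · rintro rfl
    obtain ⟨i, hi⟩ := hs1
    have := hx i
    rw [one_smul] at this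
    exact hi (x.injective this).symm
  · apply hS.eq_one x
    intro i
    rw [mul_smul, hx, hx, hs2]

theorem sum_inv'_card_sol [Fintype H] {k : ℕ} (hS : Sharp H Λ k) {s : Fin k → Fin k}
    (hs2 : ∀ i, s (s i) = i) (hs1 : ∃ i, s i ≠ i) :
    ∑ t ∈ inv' H, (sol t s : Finset (Fin k ↪ Λ)).card = Fintype.card (Fin k ↪ Λ) := by
  have hinj : Function.Injective s := fun i j h => by rw [← hs2 i, h, hs2]
  rw [← sum_card_sol hS s hinj]
  refine Finset.sum_subset (subset_univ _) ?_
  intro t _ ht
  rw [Finset.card_eq_zero, Finset.eq_empty_iff_forall_notMem]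
  intro x hx
  exact ht (mem_inv'_of_sol hS hs2 hs1 hx)

/-- an involution fixes fewer than `k` points. -/
theorem card_fx_lt [Fintype H] {k : ℕ} (hS : Sharp H Λ k) {t : H} (ht : t ∈ inv' H) :
    (fx t : Finset Λ).card < k := by
  by_contra hlt
  push_neg at hlt
  have hemb : Nonempty (Fin k ↪ (fx t : Finset Λ)) :=
    Function.Embedding.nonempty_of_card_le (by simpa using hlt)
  obtain ⟨z⟩ := hemb
  apply (mem_inv'.1 ht).1
  apply hS.eq_one (z.trans (Function.Embedding.subtype _))
  intro i
  exact mem_fx.1 (z i).2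

/-- the key parity-and-range data of an involution. -/
theorem inv_data [Fintype H] {k : ℕ} (hS : Sharp H Λ k) {t : H} (ht : t ∈ inv' H) :
    (fx t : Finset Λ).card < k ∧ (fx t : Finset Λ).card + (mv t : Finset Λ).card = Fintype.card Λ ∧
      2 ∣ (mv t : Finset Λ).card :=
  ⟨card_fx_lt hS ht, card_fx_add_mv t, two_dvd_card_mv (mem_inv'.1 ht).2⟩

theorem sum_A [Fintype H] (hS : Sharp H Λ 4) :
    ∑ t ∈ inv' H, (mv t : Finset Λ).card * ((fx t : Finset Λ).card * (fx t : Finset Λ).card - (fx t : Finset Λ).card)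
      = Fintype.card (Fin 4 ↪ Λ) := by
  rw [← sum_inv'_card_sol hS (s := ![1, 0, 2, 3]) (by decide) (by decide)]
  exact Finset.sum_congr rfl fun t ht => (card_sol_A (mem_inv'.1 ht).2).symm

theorem sum_B [Fintype H] (hS : Sharp H Λ 4) :
    ∑ t ∈ inv' H, (mv t : Finset Λ).card * ((mv t : Finset Λ).card - 2)
      = Fintype.card (Fin 4 ↪ Λ) := by
  rw [← sum_inv'_card_sol hS (s := ![1, 0, 3, 2]) (by decide) (by decide)]
  exact Finset.sum_congr rfl fun t ht => (card_sol_B (mem_inv'.1 ht).2).symm

theorem sum_C [Fintype H] (hS : Sharp H Λ 6) :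
    ∑ t ∈ inv' H, (mv t : Finset Λ).card * ((mv t : Finset Λ).card - 2) * ((mv t : Finset Λ).card - 4)
      = Fintype.card (Fin 6 ↪ Λ) := by
  rw [← sum_inv'_card_sol hS (s := ![1, 0, 3, 2, 5, 4]) (by decide) (by decide)]
  exact Finset.sum_congr rfl fun t ht => (card_sol_C (mem_inv'.1 ht).2).symm

theorem sum_D [Fintype H] (hS : Sharp H Λ 6) :
    ∑ t ∈ inv' H, (mv t : Finset Λ).card * ((mv t : Finset Λ).card - 2) *
        ((fx t : Finset Λ).card * (fx t : Finset Λ).card - (fx t : Finset Λ).card)
      = Fintype.card (Fin 6 ↪ Λ) := by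
  rw [← sum_inv'_card_sol hS (s := ![1, 0, 3, 2, 4, 5]) (by decide) (by decide)]
  exact Finset.sum_congr rfl fun t ht => (card_sol_D (mem_inv'.1 ht).2).symm

theorem sum_E [Fintype H] (hS : Sharp H Λ 6) :
    ∑ t ∈ inv' H, (mv t : Finset Λ).card * ((fx t : Finset Λ).card.descFactorial 4)
      = Fintype.card (Fin 6 ↪ Λ) := by
  rw [← sum_inv'_card_sol hS (s := ![1, 0, 2, 3, 4, 5]) (by decide) (by decide)]
  exact Finset.sum_congr rfl fun t ht => (card_sol_E (mem_inv'.1 ht).2).symm

/-- No sharply 6-transitive action on 13 points. -/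
theorem no_sharp_six_thirteen [Fintype H] (hS : Sharp H Λ 6) (hn : Fintype.card Λ = 13) : False := by
  have hC := sum_C hS
  have hD := sum_D hS
  have hE := sum_E hS
  have hcard : Fintype.card (Fin 6 ↪ Λ) = 1235520 := by
    rw [Fintype.card_embedding_eq, Fintype.card_fin, hn]; decide
  rw [hcard] at hC hD hE
  -- pointwise identity
  have key : ∀ t ∈ inv' H,
      5 * ((mv t : Finset Λ).card * ((mv t : Finset Λ).card - 2) * ((mv t : Finset Λ).card - 4))
        + 4 * ((mv t : Finset Λ).card * ((fx t : Finset Λ).card.descFactorial 4))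
      = 5 * ((mv t : Finset Λ).card * ((mv t : Finset Λ).card - 2) *
        ((fx t : Finset Λ).card * (fx t : Finset Λ).card - (fx t : Finset Λ).card))
        + 4800 * (if (fx t : Finset Λ).card = 1 then 1 else 0) := by
    intro t ht
    obtain ⟨h1, h2, h3⟩ := inv_data hS ht
    rw [hn] at h2
    generalize (fx t : Finset Λ).card = f at *
    generalize (mv t : Finset Λ).card = m at *
    have hm : m = 13 - f := by omega
    subst hm
    interval_cases f <;> first | omega | decide
  have hsum := Finset.sum_congr rfl key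
  rw [Finset.sum_add_distrib, Finset.sum_add_distrib, ← Finset.mul_sum, ← Finset.mul_sum,
    ← Finset.mul_sum, ← Finset.mul_sum, hC, hD, hE] at hsum
  omega

theorem exists_smul_eq_of_sharp {k : ℕ} (hk : 0 < k) (hS : Sharp H Λ k) (hn : k ≤ Fintype.card Λ)
    (p q : Λ) : ∃ h : H, h • p = q := by
  have hemb : Nonempty (Fin k ↪ Λ) :=
    Function.Embedding.nonempty_of_card_le (by simpa using hn)
  obtain ⟨y⟩ := hemb
  let i₀ : Fin k := ⟨0, hk⟩
  let x : Fin k ↪ Λ := y.trans (Equiv.swap (y i₀) p).toEmbedding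
  have hx : x i₀ = p := by simp [x]
  let z : Fin k ↪ Λ := x.trans (Equiv.swap p q).toEmbedding
  have hz : z i₀ = q := by simp [z, hx]
  obtain ⟨h, hh, -⟩ := hS x z
  refine ⟨h, ?_⟩
  have := hh i₀
  rwa [hx, hz] at this

theorem card_fx_conj (h t : H) :
    (fx (h * t * h⁻¹) : Finset Λ).card = (fx t : Finset Λ).card := by
  symm
  refine Finset.card_bij (fun a _ => h • a) ?_ ?_ ?_
  · intro a ha
    rw [mem_fx] at ha ⊢
    rw [mul_smul, mul_smul, inv_smul_smul, ha]
  · intro a _ b _ hab
    exact smul_left_cancel h hab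
  · intro b hb
    rw [mem_fx] at hb
    refine ⟨h⁻¹ • b, ?_, by simp⟩
    rw [mem_fx]
    have := congrArg (fun z => h⁻¹ • z) hb
    simpa [mul_smul] using this

theorem dvd_card_unique_fixed [Fintype H] {k : ℕ} (hk : 0 < k) (hS : Sharp H Λ k)
    (hn : k ≤ Fintype.card Λ) :
    Fintype.card Λ ∣ ((inv' H).filter fun t => (fx t : Finset Λ).card = 1).card := by
  set W := (inv' H).filter fun t => (fx t : Finset Λ).card = 1 with hW
  have hle : ∀ p q : Λ, (W.filter fun t => t • p = p).card ≤ (W.filter fun t => t • q = q).card := by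
    intro p q
    obtain ⟨h, hh⟩ := exists_smul_eq_of_sharp hk hS hn p q
    refine Finset.card_le_card_of_injOn (fun t => h * t * h⁻¹) ?_ ?_
    · intro t ht
      simp only [hW, coe_filter, mem_filter, Set.mem_setOf_eq, mem_inv'] at ht ⊢
      obtain ⟨⟨⟨h1, h2⟩, h3⟩, h4⟩ := ht
      refine ⟨⟨⟨?_, ?_⟩, ?_⟩, ?_⟩
      · intro h5
        apply h1
        have : t = h⁻¹ * (h * t * h⁻¹) * h := by group
        rw [this, h5]; group
      · have : h * t * h⁻¹ * (h * t * h⁻¹) = h * (t * t) * h⁻¹ := by group
        rw [this, h2]; group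
      · rw [card_fx_conj, h3]
      · rw [← hh, mul_smul, mul_smul, inv_smul_smul, h4]
    · intro a _ b _ hab
      simpa using hab
  have hsum : ∑ p : Λ, (W.filter fun t => t • p = p).card = W.card := by
    simp_rw [Finset.card_filter]
    rw [Finset.sum_comm]
    rw [Finset.card_eq_sum_ones]
    refine Finset.sum_congr rfl fun t ht => ?_
    have h1 : (fx t : Finset Λ).card = 1 := (mem_filter.1 ht).2
    rw [fx, Finset.card_filter] at h1
    exact h1
  by_cases hΛ : Nonempty Λ
  · obtain ⟨p₀⟩ := hΛ
    have hconst : ∀ p : Λ, (W.filter fun t => t • p = p).card = (W.filter fun t => t • p₀ = p₀).card :=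
      fun p => le_antisymm (hle p p₀) (hle p₀ p)
    rw [← hsum, Finset.sum_congr rfl fun p _ => hconst p]
    simp
  · have : Fintype.card Λ = 0 := by
      rw [Fintype.card_eq_zero_iff]; exact not_nonempty_iff.1 hΛ
    have hk' : k = 0 := by omega
    omega

/-- Jordan: sharply 4-transitive actions have degree 4, 5, 6 or 11. -/
theorem sharp_four_degree [Fintype H] (hS : Sharp H Λ 4) (hn : 4 ≤ Fintype.card Λ) :
    Fintype.card Λ = 4 ∨ Fintype.card Λ = 5 ∨ Fintype.card Λ = 6 ∨ Fintype.card Λ = 11 := by
  have hA := sum_A hS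
  have hB := sum_B hS
  set n := Fintype.card Λ with hndef
  have hD : Fintype.card (Fin 4 ↪ Λ) = n.descFactorial 4 := by
    rw [Fintype.card_embedding_eq, Fintype.card_fin]
  have hDpos : 0 < n.descFactorial 4 := Nat.descFactorial_pos.2 hn
  rw [hD] at hA hB
  rcases Nat.even_or_odd n with hev | hodd
  · -- even degree
    have key : ∀ t ∈ inv' H,
        (n - 4) * ((mv t : Finset Λ).card * ((fx t : Finset Λ).card * (fx t : Finset Λ).card - (fx t : Finset Λ).card))
          ≤ 2 * ((mv t : Finset Λ).card * ((mv t : Finset Λ).card - 2)) := by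
      intro t ht
      obtain ⟨h1, h2, h3⟩ := inv_data hS ht
      rw [← hndef] at h2
      generalize (fx t : Finset Λ).card = f at *
      generalize (mv t : Finset Λ).card = m at *
      obtain ⟨r, hr⟩ := hev
      interval_cases f
      · simp
      · omega
      · have : n - 4 = m - 2 := by omega
        rw [this]
        apply le_of_eq
        simp only [Nat.reduceMul, Nat.reduceSub]
        ring
      · omega
    have hsum := Finset.sum_le_sum key
    rw [← Finset.mul_sum, ← Finset.mul_sum, hA, hB] at hsum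
    have : n - 4 ≤ 2 := Nat.le_of_mul_le_mul_right hsum hDpos
    obtain ⟨r, hr⟩ := hev
    omega
  · -- odd degree
    have key : ∀ t ∈ inv' H,
        (n - 5) * ((mv t : Finset Λ).card * ((fx t : Finset Λ).card * (fx t : Finset Λ).card - (fx t : Finset Λ).card))
          ≤ 6 * ((mv t : Finset Λ).card * ((mv t : Finset Λ).card - 2)) := by
      intro t ht
      obtain ⟨h1, h2, h3⟩ := inv_data hS ht
      rw [← hndef] at h2
      generalize (fx t : Finset Λ).card = f at *
      generalize (mv t : Finset Λ).card = m at *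
      obtain ⟨r, hr⟩ := hodd
      interval_cases f
      · omega
      · simp
      · omega
      · have : n - 5 = m - 2 := by omega
        rw [this]
        apply le_of_eq
        simp only [Nat.reduceMul, Nat.reduceSub]
        ring
    have hsum := Finset.sum_le_sum key
    rw [← Finset.mul_sum, ← Finset.mul_sum, hA, hB] at hsum
    have hle : n - 5 ≤ 6 := Nat.le_of_mul_le_mul_right hsum hDpos
    obtain ⟨r, hr⟩ := hodd
    have hr7 : n ≠ 7 := by
      intro h7
      have key7 : ∀ t ∈ inv' H,
          3 * ((mv t : Finset Λ).card * ((mv t : Finset Λ).card - 2))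
            = (mv t : Finset Λ).card * ((fx t : Finset Λ).card * (fx t : Finset Λ).card - (fx t : Finset Λ).card)
              + 72 * (if (fx t : Finset Λ).card = 1 then 1 else 0) := by
        intro t ht
        obtain ⟨h1, h2, h3⟩ := inv_data hS ht
        rw [← hndef, h7] at h2
        generalize (fx t : Finset Λ).card = f at *
        generalize (mv t : Finset Λ).card = m at *
        have hm : m = 7 - f := by omega
        subst hm
        interval_cases f <;> first | omega | decide
      have hsum := Finset.sum_congr rfl key7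
      rw [Finset.sum_add_distrib, ← Finset.mul_sum, ← Finset.mul_sum, hA, hB, h7] at hsum
      have h840 : Nat.descFactorial 7 4 = 840 := by decide
      rw [h840] at hsum
      omega
    have hr9 : n ≠ 9 := by
      intro h9
      have key9 : ∀ t ∈ inv' H,
          3 * ((mv t : Finset Λ).card * ((mv t : Finset Λ).card - 2))
            = 2 * ((mv t : Finset Λ).card * ((fx t : Finset Λ).card * (fx t : Finset Λ).card - (fx t : Finset Λ).card))
              + 144 * (if (fx t : Finset Λ).card = 1 then 1 else 0) := by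
        intro t ht
        obtain ⟨h1, h2, h3⟩ := inv_data hS ht
        rw [← hndef, h9] at h2
        generalize (fx t : Finset Λ).card = f at *
        generalize (mv t : Finset Λ).card = m at *
        have hm : m = 9 - f := by omega
        subst hm
        interval_cases f <;> first | omega | decide
      have hsum := Finset.sum_congr rfl key9
      rw [Finset.sum_add_distrib, ← Finset.mul_sum, ← Finset.mul_sum, ← Finset.mul_sum, hA, hB, h9] at hsum
      have h3024 : Nat.descFactorial 9 4 = 3024 := by decide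
      rw [h3024] at hsum
      have hdvd := dvd_card_unique_fixed (by norm_num) hS hn
      rw [← hndef, h9, Finset.card_filter] at hdvd
      omega
    omega

/-- Point stabiliser action. -/
def stabAction (p : Λ) : MulAction (MulAction.stabilizer H p) {a : Λ // a ≠ p} where
  smul g a := ⟨(g : H) • (a : Λ), fun h => a.2 (by
    have h2 : (g : H) • (a : Λ) = (g : H) • p := by rw [h, g.2]
    exact smul_left_cancel _ h2)⟩
  one_smul a := Subtype.ext (one_smul H (a : Λ))
  mul_smul g g' a := Subtype.ext (mul_smul (g : H) (g' : H) (a : Λ))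

theorem sharp_stab {k : ℕ} (hS : Sharp H Λ (k + 1)) (p : Λ) :
    @Sharp (MulAction.stabilizer H p) {a : Λ // a ≠ p} _ (stabAction p) k := by
  letI := stabAction (H := H) p
  intro x y
  let x' : Fin (k + 1) → Λ := Fin.cons p fun i => (x i : Λ)
  let y' : Fin (k + 1) → Λ := Fin.cons p fun i => (y i : Λ)
  have hinj : ∀ z : Fin k ↪ {a : Λ // a ≠ p},
      Function.Injective (Fin.cons p fun i => (z i : Λ) : Fin (k + 1) → Λ) := by
    intro z i j hij
    induction i using Fin.cases with
    | zero =>
      induction j using Fin.cases with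
      | zero => rfl
      | succ j =>
        simp only [Fin.cons_zero, Fin.cons_succ] at hij
        exact absurd hij.symm (z j).2
    | succ i =>
      induction j using Fin.cases with
      | zero =>
        simp only [Fin.cons_zero, Fin.cons_succ] at hij
        exact absurd hij (z i).2
      | succ j =>
        simp only [Fin.cons_succ] at hij
        rw [z.injective (Subtype.ext hij)]
  obtain ⟨h, hh, hu⟩ := hS ⟨x', hinj x⟩ ⟨y', hinj y⟩
  have hh0 : h • p = p := by simpa [x', y'] using hh 0
  have hhs : ∀ i, h • (x i : Λ) = (y i : Λ) := by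
    intro i
    simpa [x', y'] using hh i.succ
  refine ⟨⟨h, hh0⟩, fun i => Subtype.ext (hhs i), ?_⟩
  rintro ⟨g, hg⟩ hgx
  apply Subtype.ext
  apply hu
  intro i
  induction i using Fin.cases with
  | zero => simpa [x', y'] using hg
  | succ i =>
    show g • x' i.succ = y' i.succ
    simp only [x', y', Fin.cons_succ]
    exact congrArg Subtype.val (hgx i)

theorem reduce_four (d : ℕ) {H Λ : Type*} [Group H] [Fintype H] [inst : MulAction H Λ] [Fintype Λ]
    (hS : Sharp H Λ (4 + d)) (hn : 4 + d ≤ Fintype.card Λ) :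
    Fintype.card Λ = 4 + d ∨ Fintype.card Λ = 5 + d ∨ Fintype.card Λ = 6 + d ∨ Fintype.card Λ = 11 + d := by
  induction d generalizing H Λ with
  | zero => exact sharp_four_degree hS hn
  | succ d ih =>
    have hne : Nonempty Λ := by
      apply Fintype.card_pos_iff.1
      omega
    obtain ⟨p⟩ := hne
    have hS' := sharp_stab (H := H) (k := 4 + d) hS p
    have hc : Fintype.card {a : Λ // a ≠ p} = Fintype.card Λ - 1 := by
      rw [Fintype.card_subtype_compl, Fintype.card_subtype_eq]
    have := @ih (MulAction.stabilizer H p) {a : Λ // a ≠ p} _ inferInstance (stabAction p) _ hS' (by omega)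
    omega

theorem reduce_six (d : ℕ) {H Λ : Type*} [Group H] [Fintype H] [inst : MulAction H Λ] [Fintype Λ]
    (hS : Sharp H Λ (6 + d)) (hn : 6 + d ≤ Fintype.card Λ) : Fintype.card Λ ≠ 13 + d := by
  induction d generalizing H Λ with
  | zero => exact fun h => no_sharp_six_thirteen hS h
  | succ d ih =>
    have hne : Nonempty Λ := by
      apply Fintype.card_pos_iff.1
      omega
    obtain ⟨p⟩ := hne
    have hS' := sharp_stab (H := H) (k := 6 + d) hS p
    have hc : Fintype.card {a : Λ // a ≠ p} = Fintype.card Λ - 1 := by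
      rw [Fintype.card_subtype_compl, Fintype.card_subtype_eq]
    have := @ih (MulAction.stabilizer H p) {a : Λ // a ≠ p} _ inferInstance (stabAction p) _ hS' (by omega)
    omega

end basic

/-- From the multiply-pretransitive formulation to `Sharp`. -/
theorem sharp_of_subgroup {α : Type*} (G : Subgroup (Equiv.Perm α)) (k : ℕ)
    [MulAction.IsMultiplyPretransitive G α k]
    (hsharp : ∀ x : Fin k ↪ α, MulAction.stabilizer G x = ⊥) : Sharp G α k := by
  intro x y
  obtain ⟨g, hg⟩ := MulAction.exists_smul_eq G x y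
  have hg' : ∀ i, g • x i = y i := fun i => by
    rw [← hg]; rfl
  refine ⟨g, hg', ?_⟩
  intro g' hg''
  have hmem : g⁻¹ * g' ∈ MulAction.stabilizer G x := by
    rw [MulAction.mem_stabilizer_iff]
    ext i
    show (g⁻¹ * g') • x i = x i
    rw [mul_smul, hg'', ← hg', inv_smul_smul]
  rw [hsharp x, Subgroup.mem_bot] at hmem
  exact (inv_mul_eq_one.1 hmem).symm

end Cfsg.Agent.Lib.SharpTrans
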